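import Cfsg.Agent.Lib.Compute.SB.InvConjS
import Cfsg.Agent.Lib.Compute.SB.InvConjP
import Cfsg.Agent.Lib.Compute.SB.InvConjC
import Cfsg.Agent.S0374

/-!
# The tree of involutions of `M24` is complete

The set of the packed forms in the tree is invariant under conjugation by the three generators of `M24`, and contains the
representatives of the two classes of involutions.
-/

set_option autoImplicit false

namespace Cfsg.Agent.Lib.Compute.SB

open Cfsg Cfsg.Agent.Lib.Compute.M24 Cfsg.Agent.Lib.Compute.Golay Cfsg.Agent.Lib.Compute.GolayFast PTree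

/-- An element preserving a set under conjugation, with a finite order, has an inverse with the same property. -/
theorem conj_closure_le (S : Set P) (gens : Set P) (h : ∀ g ∈ gens, ∀ v ∈ S, g * v * g⁻¹ ∈ S) :
    ∀ g ∈ Subgroup.closure gens, ∀ v ∈ S, g * v * g⁻¹ ∈ S := by
  intro g hg
  induction hg using Subgroup.closure_induction with
  | mem g hg => exact h g hg
  | one =>
    intro v hv
    simpa using hv
  | mul a b _ _ ha hb =>
    intro v hv
    have e : a * b * v * (a * b)⁻¹ = a * (b * v * b⁻¹) * a⁻¹ := by group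
    rw [e]
    exact ha _ (hb v hv)
  | inv a _ ha =>
    intro v hv
    have hpow : ∀ k : ℕ, ∀ v ∈ S, a ^ k * v * (a ^ k)⁻¹ ∈ S := by
      intro k
      induction k with
      | zero =>
        intro v hv
        simpa using hv
      | succ k ih =>
        intro v hv
        have e : a ^ (k + 1) * v * (a ^ (k + 1))⁻¹ = a ^ k * (a * v * a⁻¹) * (a ^ k)⁻¹ := by
          rw [pow_succ]
          group
        rw [e]
        exact ih _ (ha v hv)
    have h1 : a⁻¹ = a ^ (orderOf a - 1) := by
      rw [inv_eq_iff_mul_eq_one, ← pow_succ', Nat.sub_add_cancel (orderOf_pos a), pow_orderOf_eq_one]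
    rw [h1]
    exact hpow _ v hv

theorem pk_gS : pk (Equiv.optionCongr (Equiv.addRight (1 : ZMod 23))) = gS := by decide +kernel
theorem pk_gP : pk Cfsg.projInv = gP := by decide +kernel
theorem pk_gC : pk Cfsg.cubeTwist = gC := by decide +kernel

theorem memF_gens : memF gSi = true ∧ memF gP = true ∧ memF gCi = true := by decide +kernel
theorem mul_gens : mulF gS gSi = idP ∧ mulF gP gP = idP ∧ mulF gC gCi = idP := by decide +kernel

theorem pk_inv_of {g : P} {n m : ℕ} (h1 : pk g = n) (h2 : memF m = true) (h3 : mulF n m = idP) : pk g⁻¹ = m := by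
  have h4 : g * ofP m = 1 := by
    apply pk_inj
    rw [pk_mul, pk_ofP h2, h1, h3, pk_one]
  rw [inv_eq_of_mul_eq_one_right h4, pk_ofP h2]

theorem conj_step {g : P} {n m : ℕ} {T : PTree} (h1 : pk g = n) (h2 : pk g⁻¹ = m) (h3 : allK (conjF n m T) T = true) (v : P)
    (hv : pk v ∈ T.toList) : pk (g * v * g⁻¹) ∈ T.toList := by
  have h4 := allK_iff.1 h3 _ hv
  rw [pk_mul, pk_mul, h1, h2]
  exact mem_of_find h4

/-- The set of the packed forms in the tree is invariant under conjugation by `M24`. -/
theorem invT_conj {g v : P} (hg : g ∈ M24) (hv : pk v ∈ invT.toList) : pk (g * v * g⁻¹) ∈ invT.toList := by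
  rw [← Cfsg.Agent.S0374.result] at hg
  refine conj_closure_le {v | pk v ∈ invT.toList} _ ?_ g hg v hv
  rintro g (rfl | rfl | rfl) v hv
  · exact conj_step pk_gS (pk_inv_of pk_gS memF_gens.1 mul_gens.1) conj_gS v hv
  · exact conj_step pk_gP (pk_inv_of pk_gP memF_gens.2.1 mul_gens.2.1) conj_gP v hv
  · exact conj_step pk_gC (pk_inv_of pk_gC memF_gens.2.2 mul_gens.2.2) conj_gC v hv

theorem invT_base : find idP invT = true ∧ find (packL t8L) invT = true ∧ find (packL t0L) invT = true := by
  decide +kernel

/-- The tree is the set of the elements of `M24` with square the identity. -/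
theorem invT_spec : RootsSpec M24 idP invT where
  mem := by
    intro n hn
    have h1 : (memF n && Nat.beq (mulF n n) idP) = true := allK_iff.1 invT_ok n hn
    simp only [Bool.and_eq_true, Nat.beq_eq] at h1
    obtain ⟨σ, hσ, rfl⟩ := exists_of_memF h1.1
    exact ⟨σ, hσ, rfl, by rw [pk_mul, h1.2]⟩
  comp := by
    intro v hv hvw
    have h1 : v * v = 1 := by
      apply pk_inj
      rw [hvw, pk_one]
    by_cases h2 : v = 1
    · rw [h2, pk_one]
      exact mem_of_find invT_base.1
    · rcases inv_class hv h1 h2 with ⟨g, hg, rfl⟩ | ⟨g, hg, rfl⟩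
      · refine invT_conj hg ?_
        rw [pk, t8P_toL]
        exact mem_of_find invT_base.2.1
      · refine invT_conj hg ?_
        rw [pk, t0P_toL]
        exact mem_of_find invT_base.2.2
  nodup := (bdd_spec invT_bdd).1

end Cfsg.Agent.Lib.Compute.SB
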