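import Cfsg.Agent.Lib.Compute.SB.M22Data
import Cfsg.Agent.Lib.Compute.M24Fix
import Cfsg.Prelude.Def_Spor_Mathieu

/-!
# The classes of `M22` up to inverses, and the type function of `M22`

The type function of `M24` separates the classes of `M22`, except two classes of elements of order 4, which are separated
by the number of fixed octads through the two fixed points of `M22`.
-/

set_option autoImplicit false

namespace Cfsg.Agent.Lib.Compute.SB

open Cfsg Cfsg.Agent.Lib.Compute.M24 Cfsg.Agent.Lib.Compute.Golay Cfsg.Agent.Lib.Compute.GolayFast PTree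
open scoped Pointwise

/-! ### The group -/

theorem idx23 : idxPt 23 = none := by decide
theorem idx0 : idxPt 0 = some 0 := by decide

theorem mem_M22_iff {v : P} : v ∈ Cfsg.Spor.M22 ↔ v ∈ fixIn M24 [0, 23] := by
  simp only [Cfsg.Spor.M22, Cfsg.Spor.M23, Subgroup.mem_inf, MulAction.mem_stabilizer_iff, mem_fixIn]
  constructor
  · rintro ⟨⟨h1, h2⟩, h3⟩
    refine ⟨h1, fun i hi => ?_⟩
    simp only [List.mem_cons, List.not_mem_nil, or_false] at hi
    rcases hi with rfl | rfl
    · rw [idx0]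
      exact h3
    · rw [idx23]
      exact h2
  · rintro ⟨h1, h2⟩
    refine ⟨⟨h1, ?_⟩, ?_⟩
    · have := h2 23 (by simp)
      rwa [idx23] at this
    · have := h2 0 (by simp)
      rwa [idx0] at this

theorem mem_M22_of {v : P} (h1 : v ∈ M24) (h2 : v (idxPt 23) = idxPt 23) (h3 : v (idxPt 0) = idxPt 0) :
    v ∈ Cfsg.Spor.M22 := by
  rw [mem_M22_iff]
  refine ⟨h1, fun i hi => ?_⟩
  simp only [List.mem_cons, List.not_mem_nil, or_false] at hi
  rcases hi with rfl | rfl
  · exact h3
  · exact h2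

theorem M22_le {v : P} (h : v ∈ Cfsg.Spor.M22) : v ∈ M24 ∧ v (idxPt 23) = idxPt 23 ∧ v (idxPt 0) = idxPt 0 := by
  have h1 := mem_M22_iff.1 h
  exact ⟨h1.1, h1.2 23 (by simp), h1.2 0 (by simp)⟩

theorem mem22_exists : ∀ n, mem22 n = true → ∃ σ ∈ Cfsg.Spor.M22, pk σ = n := by
  intro n h
  simp only [mem22, Bool.and_eq_true, Nat.beq_eq] at h
  obtain ⟨⟨h1, h2⟩, h3⟩ := h
  obtain ⟨σ, hσ, rfl⟩ := exists_of_memF h1
  refine ⟨σ, mem_M22_of hσ ?_ ?_, rfl⟩
  · rw [getP_pk_lt σ (by norm_num)] at h2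
    have := congrArg idxPt h2
    rwa [idxPt_ptIdx] at this
  · rw [getP_pk_lt σ (by norm_num)] at h3
    have := congrArg idxPt h3
    rwa [idxPt_ptIdx] at this

theorem R22_mem22 : ∀ n ∈ R22, mem22 n = true := allL_iff.1 R22_ok

theorem R22_mem : ∀ n ∈ R22, memF n = true := fun n hn => by
  have h := R22_mem22 n hn
  simp only [mem22, Bool.and_eq_true] at h
  exact h.1.1

theorem ofP_mem22 {n : ℕ} (h : mem22 n = true) : ofP n ∈ Cfsg.Spor.M22 := by
  obtain ⟨σ, hσ, rfl⟩ := mem22_exists n h
  have h1 : memF (pk σ) = true := by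
    simp only [mem22, Bool.and_eq_true] at h
    exact h.1.1
  have : ofP (pk σ) = σ := pk_inj (pk_ofP h1)
  rw [this]
  exact hσ

/-! ### The number of fixed octads -/

/-- The number of fixed octads through the two points. -/
noncomputable def hexF (x : ℕ) : ℕ :=
  List.rec (motive := fun _ => ℕ) 0 (fun q _ ih => ifB (Nat.beq (orPow x q.2) q.1) (Nat.succ ih) ih) H77

theorem hexF_eq_aux (x : ℕ) (L : List (ℕ × List ℕ)) :
    (List.rec (motive := fun _ => ℕ) 0 (fun q _ ih => ifB (Nat.beq (orPow x q.2) q.1) (Nat.succ ih) ih) L : ℕ) =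
      (L.filter (fun q => orPow x q.2 == q.1)).length := by
  induction L with
  | nil => rfl
  | cons q L ih =>
    show ifB (Nat.beq (orPow x q.2) q.1) (Nat.succ _) _ = _
    rw [ih]
    by_cases h : orPow x q.2 = q.1
    · have h1 : Nat.beq (orPow x q.2) q.1 = true := by rw [Nat.beq_eq]; exact h
      have h2 : (orPow x q.2 == q.1) = true := by simpa using h
      rw [h1, ifB_true, List.filter_cons, if_pos h2, List.length_cons]
    · have h1 : Nat.beq (orPow x q.2) q.1 = false := by
        rw [← Bool.not_eq_true, Nat.beq_eq]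
        exact h
      have h2 : ¬ (orPow x q.2 == q.1) = true := by simpa using h
      rw [h1, ifB_false, List.filter_cons, if_neg h2]

theorem H77_form : H77.all (fun q => decide (q.1 < 2 ^ 24) &&
    (List.range 24).all (fun i => q.1.testBit i == q.2.contains i) && q.2.all (fun p => Nat.blt p 24)) = true := by
  decide +kernel

theorem H77_pts {q : ℕ × List ℕ} (hq : q ∈ H77) (σ : P) : orPow (pk σ) q.2 = imgMask (toL (σ : GolayPt → GolayPt)) q.1 := by
  have h1 := List.all_eq_true.1 H77_form q hq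
  simp only [Bool.and_eq_true, decide_eq_true_eq, List.all_eq_true, List.mem_range, beq_iff_eq, Nat.blt_eq] at h1
  obtain ⟨⟨h2, h3⟩, h4⟩ := h1
  refine (imgMask_eq_orPow (fun i => ?_) h4).symm
  by_cases hi : i < 24
  · exact h3 i hi
  · have h5 : q.1.testBit i = false :=
      Nat.testBit_eq_false_of_lt (lt_of_lt_of_le h2 (Nat.pow_le_pow_right (by norm_num) (by omega)))
    rw [h5]
    symm
    rw [← Bool.not_eq_true, List.contains_iff_mem]
    exact fun hm => hi (h4 i hm)

/-- The masks of the octads through the two points. -/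
def M77 : List ℕ := H77.map Prod.fst

theorem M77_sub : M77.all (fun m => isCode m && Nat.beq (pop m) 8 && m.testBit 23 && m.testBit 0) = true := by
  decide +kernel

theorem M77_sup : (weightMasks 8).all (fun m => !(m.testBit 23 && m.testBit 0) || M77.contains m) = true := by
  decide +kernel

theorem M77_nodup : M77.Nodup := by decide +kernel

theorem mem_M77 {m : ℕ} : m ∈ M77 ↔ m ∈ codeMasks ∧ pop m = 8 ∧ m.testBit 23 = true ∧ m.testBit 0 = true := by
  constructor
  · intro h
    have h1 := List.all_eq_true.1 M77_sub m h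
    simp only [Bool.and_eq_true, Nat.beq_eq] at h1
    exact ⟨isCode_iff.1 h1.1.1.1, h1.1.1.2, h1.1.2, h1.2⟩
  · rintro ⟨h1, h2, h3, h4⟩
    have h5 := List.all_eq_true.1 M77_sup m (mem_weightMasks.2 ⟨h1, h2⟩)
    simp only [h3, h4, Bool.and_self, Bool.not_true, Bool.false_or, List.contains_iff_mem] at h5
    exact h5

/-- The octads through the two points. -/
def A77 : Set (Finset GolayPt) := {o | o ∈ octads ∧ none ∈ o ∧ some 0 ∈ o}

theorem mem_A77_iff {o : Finset GolayPt} : o ∈ A77 ↔ ∃ m ∈ M77, maskSupport m = o := by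
  constructor
  · rintro ⟨h1, h2, h3⟩
    obtain ⟨m, hm, hp, rfl⟩ := mem_wordsOfWeight_iff.1 h1
    refine ⟨m, mem_M77.2 ⟨hm, hp, ?_, ?_⟩, rfl⟩
    · exact (mem_maskSupport_iff _ _).1 h2
    · exact (mem_maskSupport_iff _ _).1 h3
  · rintro ⟨m, hm, rfl⟩
    obtain ⟨h1, h2, h3, h4⟩ := mem_M77.1 hm
    refine ⟨mem_wordsOfWeight_iff.2 ⟨m, h1, h2, rfl⟩, ?_, ?_⟩
    · exact (mem_maskSupport_iff _ _).2 h3
    · exact (mem_maskSupport_iff _ _).2 h4

theorem ncard_fixed_A77 (σ : P) :
    {o | o ∈ A77 ∧ σ • o = o}.ncard = (M77.filter (fun m => imgMask (toL σ) m == m)).length := by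
  have hlt : ∀ m ∈ M77, m < 2 ^ 24 := fun m hm => codeMasks_lt m (mem_M77.1 hm).1
  have hinj : Set.InjOn maskSupport {m | m ∈ M77.filter (fun m => imgMask (toL σ) m == m)} := by
    intro a ha b hb h
    have ha' := hlt a (List.mem_filter.1 ha).1
    have hb' := hlt b (List.mem_filter.1 hb).1
    exact maskSupport_injOn ha' hb' h
  have himg : {o | o ∈ A77 ∧ σ • o = o} =
      maskSupport '' {m | m ∈ M77.filter (fun m => imgMask (toL σ) m == m)} := by
    ext o
    simp only [Set.mem_ofPred_eq, Set.mem_image, List.mem_filter, beq_iff_eq, mem_A77_iff]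
    constructor
    · rintro ⟨⟨m, hm, rfl⟩, h2⟩
      refine ⟨m, ⟨hm, ?_⟩, rfl⟩
      have h3 := smul_maskSupport (codes_toL σ) (validL_toL σ) m
      rw [h3] at h2
      exact maskSupport_injOn (imgMask_lt (validL_toL σ) m) (hlt m hm) h2
    · rintro ⟨m, ⟨hm, h2⟩, rfl⟩
      refine ⟨⟨m, hm, rfl⟩, ?_⟩
      rw [smul_maskSupport (codes_toL σ) (validL_toL σ) m, h2]
  rw [himg, Set.InjOn.ncard_image hinj, ncard_list (M77_nodup.filter _)]

theorem hexF_pk (σ : P) : hexF (pk σ) = {o | o ∈ A77 ∧ σ • o = o}.ncard := by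
  rw [ncard_fixed_A77, hexF, hexF_eq_aux, M77, List.filter_map, List.length_map]
  congr 1
  apply List.filter_congr
  intro q hq
  rw [H77_pts hq]
  rfl

theorem A77_smul {h : P} (hh : h ∈ Cfsg.Spor.M22) : ∀ x, x ∈ A77 → h • x ∈ A77 := by
  obtain ⟨h1, h2, h3⟩ := M22_le hh
  rw [idx23] at h2
  rw [idx0] at h3
  rintro x ⟨h4, h5, h6⟩
  refine ⟨smul_mem_octads h1 h4, ?_, ?_⟩
  · have := Finset.smul_mem_smul_finset (a := h) h5
    rwa [show h • (none : GolayPt) = none from h2] at this
  · have := Finset.smul_mem_smul_finset (a := h) h6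
    rwa [show h • (some 0 : GolayPt) = some 0 from h3] at this

theorem hexF_conj {g h : P} (hh : h ∈ Cfsg.Spor.M22) : hexF (pk (h * g * h⁻¹)) = hexF (pk g) := by
  rw [hexF_pk, hexF_pk]
  exact ncard_fixed_conj A77 h g (A77_smul hh) (A77_smul (Subgroup.inv_mem _ hh))

theorem hexF_inv (g : P) : hexF (pk g⁻¹) = hexF (pk g) := by
  rw [hexF_pk, hexF_pk]
  congr 1
  ext o
  simp only [Set.mem_ofPred_eq]
  refine and_congr_right fun _ => ?_
  rw [inv_smul_eq_iff]
  exact eq_comm

/-! ### The type -/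

/-- The type function of `M22`. -/
noncomputable def tau22 (x : ℕ) : ℕ :=
  forceL (tauF x) fun t => ifB (Nat.beq t 5) (ifB (Nat.beq (hexF x) 5) 21 5) t

theorem tau22_conj {g h : P} (hh : h ∈ Cfsg.Spor.M22) : tau22 (pk (h * g * h⁻¹)) = tau22 (pk g) := by
  simp only [tau22, forceL_eq, tauF_conj, hexF_conj hh]

theorem tau22_inv (g : P) : tau22 (pk g⁻¹) = tau22 (pk g) := by
  simp only [tau22, forceL_eq, tauF_inv, hexF_inv]

/-! ### The classes -/

/-- The statement of the classification. -/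
abbrev Classified22 (x : P) : Prop :=
  ∃ r ∈ R22.map ofP, ∃ u ∈ Cfsg.Spor.M22, u * x * u⁻¹ = r ∨ u * x * u⁻¹ = r⁻¹

theorem class22_of_table {E : List Ent} (hE : allL (entOK mem22 R22) E = true) {T : PTree}
    (hT : T.toList = E.map (fun e => e.2.2.1)) {x y u : P} (hu : u ∈ Cfsg.Spor.M22) (hxy : u * x * u⁻¹ = y)
    (hf : find (pk y) T = true) : Classified22 x := by
  have h1 := mem_of_find hf
  rw [hT] at h1
  obtain ⟨e, he, h2⟩ := List.mem_map.1 h1
  exact classify_of_ent mem22_exists R22_mem (allL_iff.1 hE e he) hu hxy h2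

theorem R22_one : ofP (R22.getD 0 0) = 1 := by
  have h1 : memF (R22.getD 0 0) = true := by decide +kernel
  apply pk_inj
  rw [pk_ofP h1, pk_one]
  decide +kernel

/-- The classification. -/
theorem m22_classify {x : P} (hx : x ∈ Cfsg.Spor.M22) : Classified22 x := by
  obtain ⟨hx1, hx2, hx3⟩ := M22_le hx
  have hconj : ∀ (u : P) (p : GolayPt), (u * x * u⁻¹) (u p) = u (x p) := fun u p => by simp
  by_cases h2 : x * x = 1
  · by_cases h1 : x = 1
    · refine ⟨1, List.mem_map.2 ⟨R22.getD 0 0, by decide +kernel, R22_one⟩, 1, Subgroup.one_mem _, Or.inl ?_⟩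
      rw [h1]
      group
    · obtain ⟨p, hp⟩ : ∃ p, x p ≠ p := by
        by_contra hc
        push Not at hc
        exact h1 (Equiv.ext hc)
      have hinv : ∀ q, x (x q) = q := fun q => by
        have := congrArg (fun f : P => f q) h2
        simpa using this
      have a1 : idxPt 23 ≠ idxPt 0 := by decide
      have a2 : idxPt 23 ≠ p := fun h => hp (by rw [← h, hx2])
      have a3 : idxPt 23 ≠ x p := fun h => hp (by
        have := congrArg x h
        rw [hx2, hinv] at this
        rw [← this, hx2])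
      have a4 : idxPt 0 ≠ p := fun h => hp (by rw [← h, hx3])
      have a5 : idxPt 0 ≠ x p := fun h => hp (by
        have := congrArg x h
        rw [hx3, hinv] at this
        rw [← this, hx3])
      obtain ⟨u, hu, h5, h6, h7, h8⟩ := exists_map4 (a := idxPt 23) (b := idxPt 0) (c := p) (d := x p)
        (a' := idxPt 23) (b' := idxPt 0) (c' := idxPt 1) (d' := idxPt 2) a1 a2 a3 a4 a5 hp.symm
        (by decide) (by decide) (by decide) (by decide) (by decide) (by decide)
      have hu22 : u ∈ Cfsg.Spor.M22 := mem_M22_of hu h5 h6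
      have hm : u * x * u⁻¹ ∈ M24 := M24.mul_mem (M24.mul_mem hu hx1) (M24.inv_mem hu)
      have hQ := cover_patF patB_ok (by norm_num) (by norm_num) (by norm_num) (by norm_num) hm
        (by conv_lhs => rw [← h5]
            rw [hconj, hx2, h5])
        (by conv_lhs => rw [← h6]
            rw [hconj, hx3, h6])
        (by rw [← h7, hconj, h8])
        (by rw [← h8, hconj, hinv, h7])
      have e1 : mulF (pk (u * x * u⁻¹)) (pk (u * x * u⁻¹)) = idP := by
        rw [← pk_mul]
        have : u * x * u⁻¹ * (u * x * u⁻¹) = u * (x * x) * u⁻¹ := by group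
        rw [this, h2, mul_one, mul_inv_cancel, pk_one]
      have hQ' : ifB (Nat.beq (mulF (pk (u * x * u⁻¹)) (pk (u * x * u⁻¹))) idP) (find (pk (u * x * u⁻¹)) TB) true = true := hQ
      rw [e1, show Nat.beq idP idP = true by simp, ifB_true] at hQ'
      exact class22_of_table entB_ok TB_eq hu22 rfl hQ'
  · obtain ⟨p, hp⟩ : ∃ p, x (x p) ≠ p := by
      by_contra hc
      push Not at hc
      exact h2 (Equiv.ext hc)
    have hp1 : x p ≠ p := by
      intro h
      apply hp
      rw [h, h]
    have hi : ∀ {a b : GolayPt}, a ≠ b → x a ≠ x b := fun h h' => h (x.injective h')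
    have a1 : idxPt 23 ≠ idxPt 0 := by decide
    have a2 : idxPt 23 ≠ p := fun h => hp1 (by rw [← h, hx2])
    have b2 : idxPt 23 ≠ x p := fun h => hi a2 (by rw [hx2]; exact h)
    have c2 : idxPt 23 ≠ x (x p) := fun h => hi b2 (by rw [hx2]; exact h)
    have a4 : idxPt 0 ≠ p := fun h => hp1 (by rw [← h, hx3])
    have b4 : idxPt 0 ≠ x p := fun h => hi a4 (by rw [hx3]; exact h)
    have c4 : idxPt 0 ≠ x (x p) := fun h => hi b4 (by rw [hx3]; exact h)
    obtain ⟨u, hu, h5, h6, h7, h8, h9⟩ := exists_map5 (a := idxPt 23) (b := idxPt 0) (c := p) (d := x p)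
      (e := x (x p)) (a' := idxPt 23) (b' := idxPt 0) (c' := idxPt 1) (d' := idxPt 2) (e' := idxPt 3)
      a1 a2 b2 c2 a4 b4 c4 hp1.symm hp.symm (hi hp1.symm)
      (by decide) (by decide) (by decide) (by decide) (by decide) (by decide) (by decide) (by decide)
      (by decide) (by decide)
    have hu22 : u ∈ Cfsg.Spor.M22 := mem_M22_of hu h5 h6
    have hm : u * x * u⁻¹ ∈ M24 := M24.mul_mem (M24.mul_mem hu hx1) (M24.inv_mem hu)
    exact class22_of_table entA_ok TA_eq hu22 rfl
      (cover_patF patA_ok (by norm_num) (by norm_num) (by norm_num) (by norm_num) hm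
        (by conv_lhs => rw [← h5]
            rw [hconj, hx2, h5])
        (by conv_lhs => rw [← h6]
            rw [hconj, hx3, h6])
        (by rw [← h7, hconj, h8])
        (by rw [← h8, hconj, h9]))

end Cfsg.Agent.Lib.Compute.SB
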