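import Cfsg.Agent.Lib.Compute.SB.M24Data

/-!
# The classes of `M24` up to inverses

Every element of `M24` is conjugate to a representative of the list `R24` or to the inverse of one.
-/

set_option autoImplicit false

namespace Cfsg.Agent.Lib.Compute.SB

open Cfsg Cfsg.Agent.Lib.Compute.M24 Cfsg.Agent.Lib.Compute.Golay Cfsg.Agent.Lib.Compute.GolayFast PTree

theorem R24_mem : ∀ n ∈ R24, memF n = true := allL_iff.1 R24_ok

theorem memF_exists : ∀ n, memF n = true → ∃ σ ∈ M24, pk σ = n := fun _ h => exists_of_memF h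

/-- The statement of the classification. -/
abbrev Classified (x : P) : Prop := ∃ r ∈ R24.map ofP, ∃ u ∈ M24, u * x * u⁻¹ = r ∨ u * x * u⁻¹ = r⁻¹

theorem class_of_table {E : List Ent} (hE : allL (entOK memF R24) E = true) {T : PTree}
    (hT : T.toList = E.map (fun e => e.2.2.1)) {x y u : P} (hu : u ∈ M24) (hxy : u * x * u⁻¹ = y)
    (hf : find (pk y) T = true) : Classified x := by
  have h1 := mem_of_find hf
  rw [hT] at h1
  obtain ⟨e, he, h2⟩ := List.mem_map.1 h1
  exact classify_of_ent memF_exists R24_mem (allL_iff.1 hE e he) hu hxy h2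

/-- Conjugates have the images of the images. -/
theorem conj_apply (u x : P) (p : GolayPt) : (u * x * u⁻¹) (u p) = u (x p) := by simp

theorem ent0_class {x r : P} {g : P} (hg : g ∈ M24) (hx : g * r * g⁻¹ = x) {e : Ent} (he : e ∈ ent0)
    (hr : e.2.2.1 = pk r) : Classified x := by
  refine classify_of_ent memF_exists R24_mem (allL_iff.1 ent0_ok e he) (M24.inv_mem hg) ?_ hr
  rw [← hx]
  group

theorem pk_t8 : pk t8P = packL t8L := by rw [pk, t8P_toL]
theorem pk_t0 : pk t0P = packL t0L := by rw [pk, t0P_toL]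
theorem pk_c6 : pk c6P = packL c6L := by rw [pk, c6P_toL]
theorem pk_c0 : pk c0P = packL c0L := by rw [pk, c0P_toL]

/-- The classification. -/
theorem m24_classify {x : P} (hx : x ∈ M24) (h1 : x ≠ 1) : Classified x := by
  by_cases hlong : ∃ p, x p ≠ p ∧ x (x p) ≠ p ∧ x (x (x p)) ≠ p
  · obtain ⟨p, hp1, hp2, hp3⟩ := hlong
    have hi : ∀ {a b : GolayPt}, a ≠ b → x a ≠ x b := fun h h' => h (x.injective h')
    have e01 : p ≠ x p := hp1.symm
    have e02 : p ≠ x (x p) := hp2.symm
    have e03 : p ≠ x (x (x p)) := hp3.symm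
    have e12 : x p ≠ x (x p) := hi e01
    have e13 : x p ≠ x (x (x p)) := hi e02
    have e23 : x (x p) ≠ x (x (x p)) := hi e12
    by_cases h4 : x (x (x (x p))) = p
    · obtain ⟨u, hu, h5, h6, h7, h8⟩ := exists_map4 (a := p) (b := x p) (c := x (x p)) (d := x (x (x p)))
        (a' := idxPt 23) (b' := idxPt 0) (c' := idxPt 1) (d' := idxPt 2) e01 e02 e03 e12 e13 e23
        (by decide) (by decide) (by decide) (by decide) (by decide) (by decide)
      have hm : u * x * u⁻¹ ∈ M24 := M24.mul_mem (M24.mul_mem hu hx) (M24.inv_mem hu)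
      refine class_of_table ent2_ok T2_eq hu rfl
        (cover_patF pat2_ok (by norm_num) (by norm_num) (by norm_num) (by norm_num) hm ?_ ?_ ?_ ?_)
      · rw [← h5, conj_apply, h6]
      · rw [← h6, conj_apply, h7]
      · rw [← h7, conj_apply, h8]
      · rw [← h8, conj_apply, h4, h5]
    · have e04 : p ≠ x (x (x (x p))) := fun h => h4 h.symm
      have e14 : x p ≠ x (x (x (x p))) := hi e03
      have e24 : x (x p) ≠ x (x (x (x p))) := hi e13
      have e34 : x (x (x p)) ≠ x (x (x (x p))) := hi e23
      obtain ⟨u, hu, h5, h6, h7, h8, h9⟩ := exists_map5 (a := p) (b := x p) (c := x (x p)) (d := x (x (x p)))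
        (e := x (x (x (x p)))) (a' := idxPt 23) (b' := idxPt 0) (c' := idxPt 1) (d' := idxPt 2) (e' := idxPt 3)
        e01 e02 e03 e04 e12 e13 e14 e23 e24 e34
        (by decide) (by decide) (by decide) (by decide) (by decide) (by decide) (by decide) (by decide)
        (by decide) (by decide)
      have hm : u * x * u⁻¹ ∈ M24 := M24.mul_mem (M24.mul_mem hu hx) (M24.inv_mem hu)
      refine class_of_table ent1_ok T1_eq hu rfl
        (cover_patF pat1_ok (by norm_num) (by norm_num) (by norm_num) (by norm_num) hm ?_ ?_ ?_ ?_)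
      · rw [← h5, conj_apply, h6]
      · rw [← h6, conj_apply, h7]
      · rw [← h7, conj_apply, h8]
      · rw [← h8, conj_apply, h9]
  · push Not at hlong
    by_cases h2 : x * x = 1
    · rcases inv_class hx h2 h1 with ⟨g, hg, hgx⟩ | ⟨g, hg, hgx⟩
      · exact ent0_class hg hgx (e := ent0.getD 0 (0, false, 0, 0)) (by decide +kernel) (by rw [pk_t8]; decide +kernel)
      · exact ent0_class hg hgx (e := ent0.getD 1 (0, false, 0, 0)) (by decide +kernel) (by rw [pk_t0]; decide +kernel)
    by_cases h3 : x * (x * x) = 1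
    · rcases ord3_class hx h3 h1 with ⟨g, hg, hgx⟩ | ⟨g, hg, hgx⟩
      · exact ent0_class hg hgx (e := ent0.getD 2 (0, false, 0, 0)) (by decide +kernel) (by rw [pk_c6]; decide +kernel)
      · exact ent0_class hg hgx (e := ent0.getD 3 (0, false, 0, 0)) (by decide +kernel) (by rw [pk_c0]; decide +kernel)
    exfalso
    obtain ⟨p, hp⟩ : ∃ p, x (x p) ≠ p := by
      by_contra hc
      push Not at hc
      exact h2 (Equiv.ext hc)
    obtain ⟨q, hq⟩ : ∃ q, x (x (x q)) ≠ q := by
      by_contra hc
      push Not at hc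
      exact h3 (Equiv.ext hc)
    have hi : ∀ {a b : GolayPt}, a ≠ b → x a ≠ x b := fun h h' => h (x.injective h')
    have hp1 : x p ≠ p := by
      intro h
      apply hp
      rw [h, h]
    have hp3 : x (x (x p)) = p := hlong p hp1 hp
    have hq1 : x q ≠ q := by
      intro h
      apply hq
      rw [h, h, h]
    have hq2 : x (x q) = q := by
      by_contra h
      exact hq (hlong q hq1 h)
    have a1 : q ≠ x q := hq1.symm
    have a2 : q ≠ p := fun h => hp (by rw [← h]; exact hq2)
    have a3 : q ≠ x p := fun h => by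
      have h5 : x (x (x p)) = x p := by rw [← h]; exact hq2
      rw [hp3] at h5
      exact hp1 h5.symm
    have a4 : q ≠ x (x p) := fun h => by
      have h5 : x (x (x (x p))) = x (x p) := by rw [← h]; exact hq2
      rw [hp3] at h5
      exact hp1 (x.injective h5).symm
    have a5 : x q ≠ p := fun h => a3 (by rw [← h]; exact hq2.symm)
    have a6 : x q ≠ x p := hi a2
    have a7 : x q ≠ x (x p) := hi a3
    have a8 : p ≠ x p := hp1.symm
    have a9 : p ≠ x (x p) := hp.symm
    have a10 : x p ≠ x (x p) := hi a8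
    obtain ⟨u, hu, h5, h6, h7, h8, h9⟩ := exists_map5 (a := q) (b := x q) (c := p) (d := x p)
        (e := x (x p)) (a' := idxPt 23) (b' := idxPt 0) (c' := idxPt 1) (d' := idxPt 2) (e' := idxPt 3)
        a1 a2 a3 a4 a5 a6 a7 a8 a9 a10
        (by decide) (by decide) (by decide) (by decide) (by decide) (by decide) (by decide) (by decide)
        (by decide) (by decide)
    have hm : u * x * u⁻¹ ∈ M24 := M24.mul_mem (M24.mul_mem hu hx) (M24.inv_mem hu)
    have hQ := cover_patF pat3_ok (by norm_num) (by norm_num) (by norm_num) (by norm_num) hm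
      (by rw [← h5, conj_apply, h6]) (by rw [← h6, conj_apply, hq2, h5])
      (by rw [← h7, conj_apply, h8]) (by rw [← h8, conj_apply, h9])
    set y := u * x * u⁻¹ with hy
    have hy3 : y (idxPt 3) = idxPt 1 := by
      rw [← h9, hy, conj_apply, hp3, h7]
    have hg3 : getP (pk y) 3 = 1 := by
      rw [getP_pk_lt y (by norm_num), hy3]
      exact ptIdx_idxPt (by norm_num)
    simp only [Q3', hg3, bne_self_eq_false, Bool.false_or] at hQ
    rw [longP, List.any_eq_true] at hQ
    obtain ⟨r, hr, hQ⟩ := hQ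
    have hr24 : r < 24 := List.mem_range.1 hr
    simp only [Bool.and_eq_true, bne_iff_ne, ne_eq] at hQ
    obtain ⟨⟨h10, h11⟩, h12⟩ := hQ
    have hidx : ∀ z : GolayPt, ptIdx z = r → z = idxPt r := fun z hz => by rw [← hz, idxPt_ptIdx]
    have hg : ∀ z : GolayPt, getP (pk y) (ptIdx z) = ptIdx (y z) := fun z => by
      rw [getP_pk_lt y (ptIdx_lt z), idxPt_ptIdx]
    have hg0 : getP (pk y) r = ptIdx (y (idxPt r)) := getP_pk_lt y hr24
    rw [hg0] at h10 h11 h12
    rw [hg] at h11 h12
    rw [hg] at h12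
    set v := u⁻¹ (idxPt r) with hv
    have huv : u v = idxPt r := by simp [hv]
    have hyv : ∀ z, y (u z) = u (x z) := fun z => conj_apply u x z
    rw [← huv, hyv] at h10 h11 h12
    rw [hyv] at h11 h12
    rw [hyv] at h12
    have hne : ∀ z : GolayPt, ptIdx (u z) ≠ r → z ≠ v := by
      intro z hz h
      apply hz
      rw [h, huv]
      exact ptIdx_idxPt hr24
    exact hne _ h12 (hlong v (hne _ h10) (hne _ h11))

end Cfsg.Agent.Lib.Compute.SB
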