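import Cfsg.Agent.Lib.Compute.SB.Roots24
import Cfsg.Agent.Lib.Compute.SB.InvSpec
import Cfsg.Agent.Lib.Compute.SB.Col24x3
import Cfsg.Agent.Lib.Compute.SB.Col24x4
import Cfsg.Agent.Lib.Compute.SB.Col24x8
import Cfsg.Agent.Lib.Compute.SB.Col24x11
import Cfsg.Agent.Lib.Compute.SB.Col24x14
import Cfsg.Agent.Lib.Compute.SB.Col24x18
import Cfsg.Agent.Lib.Compute.SB.Col24x19
import Cfsg.Agent.Lib.Compute.SB.Col24x20

/-!
# One 2-block for `M24`
-/

set_option autoImplicit false
set_option Elab.async false
set_option maxRecDepth 100000

namespace Cfsg.Agent.Lib.Compute.SB

open Cfsg Cfsg.Agent.Lib.Compute.M24 Cfsg.Agent.Lib.Compute.Golay Cfsg.Agent.Lib.Compute.GolayFast PTree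

/-- The ranks of the types. -/
def rk24 (s : ℕ) : ℕ :=
  Nat.add (Nat.mul 2 (Nat.land (Nat.shiftRight 6 s) 1))
    (Nat.land (Nat.shiftRight 616 s) 1)


theorem col24_1 : ColumnOK M24 tauF rk24 (ofP (nat_lit 974338656214362718975024378963690560)) :=
  column_of (o := 2) (e := 0) (a := 1) (w := nat_lit 974338656214362718975024378963690560) (y := nat_lit 984818244535754528103549039458486304) (tz := 1) (by decide +kernel) (by norm_num)
    (by decide +kernel) (by decide +kernel) (by decide +kernel) (by decide +kernel) (by decide +kernel) spec1 (by decide +kernel)


theorem col24_2 : ColumnOK M24 tauF rk24 (ofP (nat_lit 6948319157996677191034997895726167)) :=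
  column_of (o := 2) (e := 0) (a := 1) (w := nat_lit 6948319157996677191034997895726167) (y := nat_lit 984818244535754528103549039458486304) (tz := 2) (by decide +kernel) (by norm_num)
    (by decide +kernel) (by decide +kernel) (by decide +kernel) (by decide +kernel) (by decide +kernel) spec2 (by decide +kernel)


theorem col24_3 : ColumnOK M24 tauF rk24 (ofP (nat_lit 972606645568131968584696805283956768)) :=
  column_of (o := 3) (e := 1) (a := 0) (w := nat_lit 984818244535754528103549039458486304) (y := y24x3) (tz := 3) (by decide +kernel) (by norm_num)
    (by decide +kernel) (by decide +kernel) (by decide +kernel) (by decide +kernel) (by decide +kernel) invT_spec (colCheck_of_bits bits24x3 (by decide +kernel))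


theorem col24_4 : ColumnOK M24 tauF rk24 (ofP (nat_lit 6791464878426358018044804127133409)) :=
  column_of (o := 3) (e := 1) (a := 0) (w := nat_lit 984818244535754528103549039458486304) (y := y24x4) (tz := 4) (by decide +kernel) (by norm_num)
    (by decide +kernel) (by decide +kernel) (by decide +kernel) (by decide +kernel) (by decide +kernel) invT_spec (colCheck_of_bits bits24x4 (by decide +kernel))


theorem col24_5 : ColumnOK M24 tauF rk24 (ofP (nat_lit 982939167501853531555312799203821604)) :=
  column_of (o := 4) (e := 0) (a := 2) (w := nat_lit 982939167501853531555312799203821604) (y := nat_lit 984818244535754528103549039458486304) (tz := 5) (by decide +kernel) (by norm_num)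
    (by decide +kernel) (by decide +kernel) (by decide +kernel) (by decide +kernel) (by decide +kernel) spec5 (by decide +kernel)


theorem col24_6 : ColumnOK M24 tauF rk24 (ofP (nat_lit 61919868402514412470551295786225783)) :=
  column_of (o := 4) (e := 0) (a := 2) (w := nat_lit 61919868402514412470551295786225783) (y := nat_lit 984818244535754528103549039458486304) (tz := 6) (by decide +kernel) (by norm_num)
    (by decide +kernel) (by decide +kernel) (by decide +kernel) (by decide +kernel) (by decide +kernel) spec6 (by decide +kernel)


theorem col24_7 : ColumnOK M24 tauF rk24 (ofP (nat_lit 180847458314450969334339727153859607)) :=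
  column_of (o := 4) (e := 0) (a := 2) (w := nat_lit 180847458314450969334339727153859607) (y := nat_lit 984818244535754528103549039458486304) (tz := 7) (by decide +kernel) (by norm_num)
    (by decide +kernel) (by decide +kernel) (by decide +kernel) (by decide +kernel) (by decide +kernel) spec7 (by decide +kernel)


theorem col24_8 : ColumnOK M24 tauF rk24 (ofP (nat_lit 939172444042868592123850293424359912)) :=
  column_of (o := 5) (e := 2) (a := 0) (w := nat_lit 984818244535754528103549039458486304) (y := y24x8) (tz := 8) (by decide +kernel) (by norm_num)
    (by decide +kernel) (by decide +kernel) (by decide +kernel) (by decide +kernel) (by decide +kernel) invT_spec (colCheck_of_bits bits24x8 (by decide +kernel))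


theorem col24_9 : ColumnOK M24 tauF rk24 (ofP (nat_lit 2073449861726594773241964367626799)) :=
  column_of (o := 6) (e := 1) (a := 1) (w := nat_lit 974338656214362718975024378963690560) (y := nat_lit 644622727068369068736331109073828567) (tz := 9) (by decide +kernel) (by norm_num)
    (by decide +kernel) (by decide +kernel) (by decide +kernel) (by decide +kernel) (by decide +kernel) spec1 (by decide +kernel)


theorem col24_10 : ColumnOK M24 tauF rk24 (ofP (nat_lit 64507509711741841276418217053100418)) :=
  column_of (o := 6) (e := 1) (a := 1) (w := nat_lit 6948319157996677191034997895726167) (y := nat_lit 277157990424835128121419965244277484) (tz := 10) (by decide +kernel) (by norm_num)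
    (by decide +kernel) (by decide +kernel) (by decide +kernel) (by decide +kernel) (by decide +kernel) spec2 (by decide +kernel)


theorem col24_11 : ColumnOK M24 tauF rk24 (ofP (nat_lit 501406959646411720597583120364068049)) :=
  column_of (o := 7) (e := 3) (a := 0) (w := nat_lit 984818244535754528103549039458486304) (y := y24x11) (tz := 11) (by decide +kernel) (by norm_num)
    (by decide +kernel) (by decide +kernel) (by decide +kernel) (by decide +kernel) (by decide +kernel) invT_spec (colCheck_of_bits bits24x11 (by decide +kernel))


theorem col24_12 : ColumnOK M24 tauF rk24 (ofP (nat_lit 92708577578726515348116194238516247)) :=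
  column_of (o := 8) (e := 0) (a := 3) (w := nat_lit 92708577578726515348116194238516247) (y := nat_lit 984818244535754528103549039458486304) (tz := 12) (by decide +kernel) (by norm_num)
    (by decide +kernel) (by decide +kernel) (by decide +kernel) (by decide +kernel) (by decide +kernel) spec12 (by decide +kernel)


theorem col24_13 : ColumnOK M24 tauF rk24 (ofP (nat_lit 9792770031586600734367755356116695)) :=
  column_of (o := 10) (e := 2) (a := 1) (w := nat_lit 6948319157996677191034997895726167) (y := nat_lit 959872246978691270811799945448344832) (tz := 13) (by decide +kernel) (by norm_num)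
    (by decide +kernel) (by decide +kernel) (by decide +kernel) (by decide +kernel) (by decide +kernel) spec2 (by decide +kernel)


theorem col24_14 : ColumnOK M24 tauF rk24 (ofP (nat_lit 178512544653004166214742348910668334)) :=
  column_of (o := 11) (e := 5) (a := 0) (w := nat_lit 984818244535754528103549039458486304) (y := y24x14) (tz := 14) (by decide +kernel) (by norm_num)
    (by decide +kernel) (by decide +kernel) (by decide +kernel) (by decide +kernel) (by decide +kernel) invT_spec (colCheck_of_bits bits24x14 (by decide +kernel))


theorem col24_15 : ColumnOK M24 tauF rk24 (ofP (nat_lit 24017119502966752777284472680787683)) :=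
  column_of (o := 12) (e := 1) (a := 2) (w := nat_lit 61919868402514412470551295786225783) (y := nat_lit 49875938351587900047654627691221111) (tz := 15) (by decide +kernel) (by norm_num)
    (by decide +kernel) (by decide +kernel) (by decide +kernel) (by decide +kernel) (by decide +kernel) spec6 (by decide +kernel)


theorem col24_16 : ColumnOK M24 tauF rk24 (ofP (nat_lit 152413099986733640828163094373453186)) :=
  column_of (o := 12) (e := 1) (a := 2) (w := nat_lit 180847458314450969334339727153859607) (y := nat_lit 812201577755224580442475958690873552) (tz := 16) (by decide +kernel) (by norm_num)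
    (by decide +kernel) (by decide +kernel) (by decide +kernel) (by decide +kernel) (by decide +kernel) spec7 (by decide +kernel)


theorem col24_17 : ColumnOK M24 tauF rk24 (ofP (nat_lit 1647143142259963417879663610380847)) :=
  column_of (o := 14) (e := 3) (a := 1) (w := nat_lit 974338656214362718975024378963690560) (y := nat_lit 442752379770147357598964228556467462) (tz := 17) (by decide +kernel) (by norm_num)
    (by decide +kernel) (by decide +kernel) (by decide +kernel) (by decide +kernel) (by decide +kernel) spec1 (by decide +kernel)


theorem col24_18 : ColumnOK M24 tauF rk24 (ofP (nat_lit 439142256082838613803655294300332100)) :=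
  column_of (o := 15) (e := 7) (a := 0) (w := nat_lit 984818244535754528103549039458486304) (y := y24x18) (tz := 18) (by decide +kernel) (by norm_num)
    (by decide +kernel) (by decide +kernel) (by decide +kernel) (by decide +kernel) (by decide +kernel) invT_spec (colCheck_of_bits bits24x18 (by decide +kernel))


theorem col24_19 : ColumnOK M24 tauF rk24 (ofP (nat_lit 791463527769434054221265628356027980)) :=
  column_of (o := 21) (e := 10) (a := 0) (w := nat_lit 984818244535754528103549039458486304) (y := y24x19) (tz := 19) (by decide +kernel) (by norm_num)
    (by decide +kernel) (by decide +kernel) (by decide +kernel) (by decide +kernel) (by decide +kernel) invT_spec (colCheck_of_bits bits24x19 (by decide +kernel))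


theorem col24_20 : ColumnOK M24 tauF rk24 (ofP (nat_lit 670193406342721731134187850766011846)) :=
  column_of (o := 23) (e := 11) (a := 0) (w := nat_lit 984818244535754528103549039458486304) (y := y24x20) (tz := 20) (by decide +kernel) (by norm_num)
    (by decide +kernel) (by decide +kernel) (by decide +kernel) (by decide +kernel) (by decide +kernel) invT_spec (colCheck_of_bits bits24x20 (by decide +kernel))


theorem R24_one : ofP (R24.getD 0 0) = 1 := by
  have h1 : memF (R24.getD 0 0) = true := by decide +kernel
  apply pk_inj
  rw [pk_ofP h1, pk_one]
  decide +kernel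

/-- All the elements of `M24` lie in one 2-block. -/
theorem m24_sameBlock {M : Ideal AlgInt} (hM : IsPModular 2 M) (χ ψ : IrrCharacter M24) :
    SameBlock M (χ : M24 → ℂ) (ψ : M24 → ℂ) := by
  refine sameBlock_main M24 tauF rk24 (fun g _ h _ => tauF_conj g h) (fun g _ => tauF_inv g)
    (R24.map ofP) ?_ ?_ ?_ ?_ hM χ ψ
  · intro r hr
    obtain ⟨n, hn, rfl⟩ := List.mem_map.1 hr
    exact ofP_mem (R24_mem n hn)
  · intro x hx
    by_cases h1 : x = 1
    · refine ⟨1, List.mem_map.2 ⟨R24.getD 0 0, by decide +kernel, R24_one⟩, 1, Subgroup.one_mem _, Or.inl ?_⟩
      rw [h1]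
      group
    · exact m24_classify hx h1
  · intro r hr r' hr' h
    obtain ⟨n, hn, rfl⟩ := List.mem_map.1 hr
    obtain ⟨n', hn', rfl⟩ := List.mem_map.1 hr'
    rw [pk_ofP (R24_mem n hn), pk_ofP (R24_mem n' hn')] at h
    have h1 : (R24.map tauF).Nodup := by
      have h2 : R24.map tauF = (List.range 21) := by decide +kernel
      rw [h2]
      decide
    rw [List.inj_on_of_nodup_map h1 hn hn' h]
  · intro r hr hne
    obtain ⟨n, hn, rfl⟩ := List.mem_map.1 hr
    simp only [R24, List.mem_cons, List.not_mem_nil, or_false] at hn
    rcases hn with rfl | rfl | rfl | rfl | rfl | rfl | rfl | rfl | rfl | rfl | rfl | rfl | rfl | rfl | rfl | rfl | rfl | rfl | rfl | rfl | rfl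
    · exact absurd (pk_inj (by rw [pk_ofP (by decide +kernel), pk_one]; decide +kernel)) hne

    · exact col24_1
    · exact col24_2
    · exact col24_3
    · exact col24_4
    · exact col24_5
    · exact col24_6
    · exact col24_7
    · exact col24_8
    · exact col24_9
    · exact col24_10
    · exact col24_11
    · exact col24_12
    · exact col24_13
    · exact col24_14
    · exact col24_15
    · exact col24_16
    · exact col24_17
    · exact col24_18
    · exact col24_19
    · exact col24_20

end Cfsg.Agent.Lib.Compute.SB
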